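import Cfsg.Agent.Lib.Helper11.P5a.D0
import Cfsg.Agent.Lib.Helper11.Words

set_option autoImplicit false
set_option maxRecDepth 100000

namespace Cfsg.Agent.Lib.Helper11.P5a

noncomputable def fc (i : ℕ) : ℕ := fc0_0 i
noncomputable def sc (i : ℕ) : ℕ := sc0_0 i
noncomputable def nc (i : ℕ) : ℕ := nc0_0 i
noncomputable def cc (i : ℕ) : ℕ := cc0_0 i

noncomputable def INV : ℕ := 172066848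
def isH (l : ℕ) : Bool := decide (l ∈ [1, 2, 3])
def gens : List ℕ := [1, 2, 3, 4, 5]
def rt : RT := (.node 7 (.node 4 (.node 2 (.node 1 (.leaf 9 0 [1, 4, 1, 4]) (.leaf 14 0 [2, 4, 2, 4])) (.node 3 (.leaf 15 0 [2, 5, 2, 5]) (.leaf 10 0 [1, 5, 1, 5]))) (.node 6 (.node 5 (.leaf 20 0 [3, 5, 3, 5]) (.leaf 8 0 [1, 3, 1, 3])) (.leaf 25 1 [5, 4, 5, 4, 5, 4]))) (.node 14 (.node 10 (.node 9 (.node 8 (.leaf 13 1 [3, 2, 3, 2, 3, 2]) (.leaf 25 0 [4, 5, 4, 5, 4, 5])) (.leaf 20 1 [5, 3, 5, 3])) (.node 12 (.node 11 (.leaf 8 1 [3, 1, 3, 1]) (.leaf 32 3 [4, 3, 4, 3, 4, 3, 4, 3, 1, 4, 3])) (.node 13 (.leaf 32 2 [3, 4, 3, 4, 3, 4, 3, 4, 3, 1, 4]) (.leaf 31 0 [5, 3, 2, 1, 3, 2, 1, 3, 2, 1])))) (.node 19 (.node 17 (.node 16 (.node 15 (.leaf 14 1 [4, 2, 4, 2]) (.leaf 13 0 [2, 3,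 2, 3, 2, 3])) (.leaf 15 1 [5, 2, 5, 2])) (.node 18 (.leaf 9 1 [4, 1, 4, 1]) (.leaf 7 1 [2, 1, 2, 1, 2, 1, 2, 1]))) (.node 23 (.node 21 (.node 20 (.leaf 31 2 [2, 1, 3, 2, 1, 3, 2, 1, 5, 3]) (.leaf 32 1 [4, 3, 4, 3, 4, 3, 4, 3, 4, 3, 1])) (.node 22 (.leaf 31 5 [2, 1, 3, 2, 1, 5, 3, 2, 1, 3]) (.leaf 31 3 [1, 3, 2, 1, 3, 2, 1, 5, 3, 2]))) (.node 27 (.node 25 (.node 24 (.leaf 7 0 [1, 2, 1, 2, 1, 2, 1, 2]) (.leaf 32 6 [3, 4, 3, 4, 3, 1, 4, 3, 4, 3, 4])) (.node 26 (.leaf 31 9 [1, 5, 3, 2, 1, 3, 2, 1, 3, 2]) (.leaf 31 1 [3, 2, 1, 3, 2, 1, 3, 2, 1, 5]))) (.node 29 (.node 28 (.leaf 10 1 [5, 1, 5, 1]) (.leaf 0 0 [])) (.node 30 (.leaf 3 0 [3, 3]) (.leaf 32 8 [3, 4, 3, 1, 4, 3, 4, 3, 4, 3, 4]))))))))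


end Cfsg.Agent.Lib.Helper11.P5a
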